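import Cfsg.Agent.Co2Invol.Extra
import Cfsg.Agent.Co0Sections.MatAut
import Cfsg.Agent.SuzCover.Checks
import Cfsg.Agent.SuzCover.Code
import Cfsg.Agent.SuzCentInv.Data
import Cfsg.Agent.SuzCentInv.FrameData

/-!
Checks in the frame where the involution negates the sixteen points outside the base octad.
-/

set_option autoImplicit false
set_option maxRecDepth 100000
set_option Elab.async false

namespace Cfsg.Agent.SuzCentInv

open Cfsg Cfsg.Agent.Golay Cfsg.Agent.Leech Cfsg.Agent.Co0Sections Cfsg.Agent.Co2Invol
open Cfsg.Agent.SuzCover (omCode mulZ normC)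

/-- The positions outside the base octad. -/
def outIdx : List ℕ := [4, 6, 7, 8, 9, 10, 11, 12, 13, 15, 16, 18, 19, 20, 21, 22]

/-- The positions of the base octad. -/
def inIdx : List ℕ := [0, 1, 2, 3, 5, 14, 17, 23]

/-- A vector vanishes outside the base octad. -/
def inOB (x : GolayPt → ℤ) : Bool := outIdx.all fun i => x (ptOf i) == 0

/-- The minimal vectors supported on the base octad. -/
def octVecs : List (GolayPt → ℤ) := (pairList ++ signVecs (posList 8536111) false).filter inOB

/-- The vectors fixed in the chain, each followed by its image. -/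
def baseVec (k : ℕ) : GolayPt → ℤ := ofList (chainVecs.getD k [])

/-- The candidates for the image of a vector. -/
def candL (n : ℕ) : List (GolayPt → ℤ) :=
  octVecs.filter fun y => (List.range (2 * n)).all fun i =>
    dotL (baseVec i) y == dotL (baseVec i) (baseVec (2 * n))

/-- The code of a table. -/
def encR (R : List (List ℤ)) : ℕ :=
  packCols (dualVecs.map fun v => keyOf (appE (ent R) v))

/-- The code of the standard involution. -/
def encT : ℕ := packCols (dualVecs.map fun v => keyOf (flipOn signSet v))

theorem out_spec : ∀ p : GolayPt, p ∉ oct0 ↔ ptIdx p ∈ outIdx := by decide +kernel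

theorem oct_words : (octIdx.all fun k => Nat.beq (Golay.enc k) 8536111 ||
    (signVecs (posList (Golay.enc k)) false).all fun x => !inOB x) = true := by decide +kernel

theorem three_ne : ∀ i < 24, threeVec i (ptOf 4) ≠ 0 := by decide +kernel

theorem tabH_len : tabH.length = 24 ∧ tabW.length = 24 := by decide +kernel

theorem tabH_ok : okR tabH = true := by decide +kernel

theorem tabW_ok : okR tabW = true := by decide +kernel

theorem base_ok : ((List.range 8).all fun k =>
    inLeechB (baseVec k) && inOB (baseVec k) && (dotL (baseVec k) (baseVec k) == 32)) = true := by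
  decide +kernel

theorem base_img : ((List.range 4).all fun n =>
    eqB (appE (ent tabW) (baseVec (2 * n))) (baseVec (2 * n + 1))) = true := by decide +kernel

theorem cand_len : (candL 0).length ≤ 240 ∧ (candL 1).length ≤ 27 ∧ (candL 2).length ≤ 8 ∧
    (candL 3).length ≤ 3 := by decide +kernel

theorem coef_ok : ((List.range 8).all fun r =>
    eqB (fun p => if ptIdx p = inIdx.getD r 0 then 8 else 0)
      (fun p => ((List.range 8).map fun k =>
        (chainCoef.getD r []).getD k 0 * baseVec k p).sum)) = true := by decide +kernel

theorem code_x : Nat.beq (normC (matMul (matMul (encR tabH) encT) (encR (trTab tabH)))) zC = true := by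
  decide +kernel

theorem code_w : Nat.beq (encR tabW) (matMul (matMul (encR (trTab tabH)) omCode) (encR tabH)) = true ∧
    Nat.beq (matMul (matMul (encR tabW) (encR tabW)) (encR tabW)) matOne = true := by
  decide +kernel

theorem cube_w :
    eqB (appE (ent tabW) (appE (ent tabW) (appE (ent tabW) (baseVec 0)))) (baseVec 0) = true ∧
      eqB (-baseVec 0) (baseVec 0) = false := by
  decide +kernel

/-- A vector separating the witness from the conjugate of the central element. -/
def witVec : GolayPt → ℤ := fun p => if p = ptOf 4 then 8 else 0

theorem wit_ok : (208 ∈ codeList) ∧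
    eqB (appE (ent tabW) (flipOn (bitSet (Golay.enc 208)) witVec))
      (flipOn (bitSet (Golay.enc 208)) (appE (ent tabW) witVec)) = false := by
  decide +kernel

end Cfsg.Agent.SuzCentInv
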