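import Cfsg.Agent.SuzCover.Multiplier
import Cfsg.Agent.SuzCentInv.Frame

/-!
An upper bound for the centraliser of the involution: its preimage in the cover fixes a lift, hence
after conjugation commutes with the standard involution and with a conjugate of the central element
of order three, and the subgroup of these automorphisms is bounded by an orbit chain.
-/

set_option autoImplicit false
set_option maxRecDepth 100000

namespace Cfsg.Agent.SuzCentInv

open Cfsg Cfsg.Agent.Golay Cfsg.Agent.Leech Cfsg.Agent.Co0Sections Cfsg.Agent.Co2Invol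
open Cfsg.Agent.SuzCover (omCode mulZ normC cover proj kerZ Om suzCode)

attribute [local irreducible] matMul matOne omCode zC normC encR encT matEnc keyOf packCols

theorem dualL_val : dualL.map (fun v => v.1) = dualVecs := by
  rw [dualL, List.map_pmap, List.pmap_eq_map, List.map_id']

theorem enc_def (y : Cfsg.Spor.Suz) : suzCode.enc y = normC (matEnc (SuzCover.pre y).1) := rfl

theorem matEnc_of_fun {g : Co0} {f : (GolayPt → ℤ) → GolayPt → ℤ}
    (h : ∀ x : leechLattice, (g • x).1 = f x.1) :
    matEnc g = packCols (dualVecs.map fun v => keyOf (f v)) := by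
  unfold matEnc
  rw [colsOf, ← dualL_val, List.map_map]
  exact congrArg packCols (List.map_congr_left fun v _ => congrArg keyOf (h v))

/-- The conjugating automorphism. -/
noncomputable def autH : Co0 := toCo0 (isAut_of_ok tabH_ok)

/-- The conjugate of the central element. -/
noncomputable def autW : Co0 := toCo0 (isAut_of_ok tabW_ok)

theorem autH_smul (x : leechLattice) : (autH • x).1 = appE (ent tabH) x.1 := rfl

theorem autH_inv_smul (x : leechLattice) : (autH⁻¹ • x).1 = appE (ent (trTab tabH)) x.1 := by
  rw [ent_trTab tabH_len.1]; rfl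

theorem autW_smul (x : leechLattice) : (autW • x).1 = appE (ent tabW) x.1 := rfl

theorem enc_autH : matEnc autH = encR tabH := by
  unfold encR; exact matEnc_of_fun autH_smul

theorem enc_autH_inv : matEnc autH⁻¹ = encR (trTab tabH) := by
  unfold encR; exact matEnc_of_fun autH_inv_smul

theorem enc_autW : matEnc autW = encR tabW := by
  unfold encR; exact matEnc_of_fun autW_smul

theorem enc_invT : matEnc invT = encT := by
  unfold encT; exact matEnc_of_fun invT_smul

theorem vec_mem {k : ℕ} (hk : k < 8) : baseVec k ∈ leechLattice ∧ InO (baseVec k) ∧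
    sqNorm (baseVec k) = 32 := by
  have h := List.all_eq_true.1 base_ok k (List.mem_range.2 hk)
  simp only [Bool.and_eq_true, beq_iff_eq] at h
  refine ⟨mem_of_inLeechB h.1.1, fun p hp => ?_, ?_⟩
  · have h2 := List.all_eq_true.1 h.1.2 _ ((out_spec p).1 hp)
    rw [ptOf_ptIdx] at h2
    exact beq_iff_eq.1 h2
  · rw [← h.2, dotL_eq]
    simp only [sqNorm, dotInt, pow_two]

/-- A vector of the chain in the lattice. -/
noncomputable def chainV (k : ℕ) : leechLattice :=
  open Classical in if h : baseVec k ∈ leechLattice then ⟨baseVec k, h⟩ else 0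

theorem chainV_val {k : ℕ} (hk : k < 8) : (chainV k).1 = baseVec k := by
  rw [chainV, dif_pos (vec_mem hk).1]

theorem autW_cube : autW ^ 3 = 1 := by
  have e : matEnc (autW ^ 3) = matEnc 1 := by
    rw [pow_succ, pow_two, matEnc_mul, matEnc_mul, enc_autW, matEnc_one]
    exact Nat.eq_of_beq_eq_true code_w.2
  rcases eq_or_neg_of_matEnc e with h | h
  · exact h
  · exfalso
    rw [one_mul] at h
    have h2 : ((autW ^ 3) • chainV 0).1 = baseVec 0 := by
      rw [pow_succ, pow_two, mul_smul, mul_smul, autW_smul, autW_smul, autW_smul,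
        chainV_val (by norm_num)]
      exact (eq_of_eqB cube_w.1).symm
    rw [h, negCo0_smul, AddSubgroup.coe_neg, chainV_val (by norm_num)] at h2
    have h3 := cube_w.2
    rw [h2, eqB_self] at h3
    exact Bool.noConfusion h3

theorem autW_eq : autW = autH⁻¹ * Om * autH := by
  have e : matEnc autW = matEnc (autH⁻¹ * Om * autH) := by
    rw [matEnc_mul, matEnc_mul, enc_autW, enc_autH, enc_autH_inv, SuzCover.matEnc_Om]
    exact Nat.eq_of_beq_eq_true code_w.1
  rcases eq_or_neg_of_matEnc e with h | h
  · exact h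
  · exfalso
    have h3 := autW_cube
    have hc : (autH⁻¹ * Om * autH) ^ 3 = 1 := by
      rw [show autH⁻¹ * Om * autH = MulAut.conj autH⁻¹ Om by simp, ← map_pow, SuzCover.Om_cube,
        map_one]
    rw [h, (show Commute (autH⁻¹ * Om * autH) negCo0 from SuzCover.negCo0_comm _).mul_pow, hc,
      one_mul, pow_succ, pow_two, SuzCover.negCo0_sq, one_mul] at h3
    exact negCo0_ne_one h3

/-- The lift of the involution. -/
noncomputable def xLift : Co0 := autH * invT * autH⁻¹

theorem xLift_sq : xLift * xLift = 1 := by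
  rw [xLift, show autH * invT * autH⁻¹ * (autH * invT * autH⁻¹) = autH * (invT * invT) * autH⁻¹ by
    group, invT_sq, mul_one, mul_inv_cancel]

theorem exists_proj_of_code {g : Co0} {y : Cfsg.Spor.Suz}
    (h : suzCode.enc y = normC (matEnc g)) : ∃ k : cover, k.1 = g ∧ proj k = y := by
  obtain ⟨i, hi⟩ := SuzCover.normC_mem g
  obtain ⟨j, hj⟩ := SuzCover.normC_mem (SuzCover.pre y).1
  have e : matEnc (g * Om ^ i) = matEnc ((SuzCover.pre y).1 * Om ^ j) := by
    exact hi.symm.trans (h.symm.trans ((enc_def y).trans hj))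
  have hcover : g ∈ cover := by
    have h1 : g * Om ^ i ∈ cover := by
      have hm : (SuzCover.pre y).1 * Om ^ j ∈ cover :=
        mul_mem (SuzCover.pre y).2 (pow_mem SuzCover.Om_mem _)
      rcases eq_or_neg_of_matEnc e with h2 | h2 <;> rw [h2]
      · exact hm
      · exact mul_mem hm SuzCover.neg_mem_cover
    simpa using mul_mem h1 (inv_mem (pow_mem SuzCover.Om_mem i))
  refine ⟨⟨g, hcover⟩, rfl, suzCode.enc_inj ?_⟩
  exact ((enc_def _).trans (SuzCover.normC_of_proj (h := ⟨g, hcover⟩) (SuzCover.proj_pre _))).trans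
    h.symm

theorem octVec_of {x : leechLattice} (hN : sqNorm x.1 = 32) (hx : InO x.1) : x.1 ∈ octVecs := by
  have hz : inOB x.1 = true := List.all_eq_true.2 fun i hi => by
    have hi24 : i < 24 := by
      simp only [outIdx, List.mem_cons, List.not_mem_nil, or_false] at hi
      omega
    rw [beq_iff_eq]
    refine hx _ ((out_spec _).2 ?_)
    rwa [ptIdx_ptOf i hi24]
  refine List.mem_filter.2 ⟨?_, hz⟩
  have h := mem_minList x.2 hN
  rw [minList, List.mem_append, List.mem_append] at h
  rcases h with (h | h) | h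
  · exact List.mem_append_left _ h
  · rw [octList, List.mem_flatMap] at h
    obtain ⟨k, hk, hkx⟩ := h
    have hc := List.all_eq_true.1 oct_words k hk
    rw [Bool.or_eq_true] at hc
    rcases hc with hc | hc
    · rw [Nat.eq_of_beq_eq_true hc] at hkx
      exact List.mem_append_right _ hkx
    · have := List.all_eq_true.1 hc _ hkx
      rw [hz] at this
      exact Bool.noConfusion this
  · exfalso
    rw [oddList, List.mem_flatMap] at h
    obtain ⟨k, -, hk⟩ := h
    obtain ⟨i, hi, e⟩ := List.mem_map.1 hk
    have h4 : x.1 (ptOf 4) = 0 := hx _ ((out_spec _).2 (by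
      rw [ptIdx_ptOf 4 (by norm_num)]; decide))
    have hne := three_ne i (List.mem_range.1 hi)
    rw [← e] at h4
    simp only at h4
    cases hb : (Golay.enc k).testBit (ptIdx (ptOf 4)) <;> rw [hb] at h4
    · exact hne h4
    · exact hne (neg_eq_zero.1 h4)

/-- The automorphisms commuting with the standard involution and the conjugate. -/
noncomputable def frameGrp : Subgroup Co0 :=
  Subgroup.centralizer ({invT} : Set Co0) ⊓ Subgroup.centralizer ({autW} : Set Co0)

theorem mem_frameGrp {g : Co0} :
    g ∈ frameGrp ↔ g * invT = invT * g ∧ g * autW = autW * g := by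
  rw [frameGrp, Subgroup.mem_inf, Subgroup.mem_centralizer_singleton_iff,
    Subgroup.mem_centralizer_singleton_iff]

/-- The chain of stabilisers. -/
noncomputable def stabGrp : ℕ → Subgroup Co0
  | 0 => frameGrp
  | n + 1 => stabGrp n ⊓ MulAction.stabilizer Co0 (chainV (2 * n))

theorem stabGrp_le : ∀ n, stabGrp n ≤ frameGrp
  | 0 => le_rfl
  | n + 1 => inf_le_left.trans (stabGrp_le n)

theorem stabGrp_fix : ∀ {n : ℕ}, n ≤ 4 → ∀ {g : Co0}, g ∈ stabGrp n → ∀ i < 2 * n,
    g • chainV i = chainV i
  | 0, _, _, _, i, hi => by omega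
  | n + 1, hn, g, hg, i, hi => by
    rw [stabGrp, Subgroup.mem_inf, MulAction.mem_stabilizer_iff] at hg
    rcases Nat.lt_or_ge i (2 * n) with h | h
    · exact stabGrp_fix (by omega) hg.1 i h
    · rcases (show i = 2 * n ∨ i = 2 * n + 1 by omega) with rfl | rfl
      · exact hg.2
      · have he : chainV (2 * n + 1) = autW • chainV (2 * n) := by
          refine Subtype.ext ?_
          rw [chainV_val (by omega), autW_smul, chainV_val (by omega)]
          exact eq_of_eqB (List.all_eq_true.1 base_img n (List.mem_range.2 (by omega)))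
        rw [he, ← mul_smul, (mem_frameGrp.1 (stabGrp_le n hg.1)).2, mul_smul, hg.2]

theorem orbit_mem {n : ℕ} (hn : n < 4) {g : Co0} (hg : g ∈ stabGrp n) :
    (g • chainV (2 * n)).1 ∈ candL n := by
  have hf := mem_frameGrp.1 (stabGrp_le n hg)
  refine List.mem_filter.2 ⟨octVec_of ?_ ?_, List.all_eq_true.2 fun i hi => ?_⟩
  · rw [show sqNorm (g • chainV (2 * n)).1 = sqNorm (chainV (2 * n)).1 from g.2.2 _,
      chainV_val (by omega)]
    exact (vec_mem (by omega)).2.2
  · refine inO_of_fix ?_
    rw [← mul_smul, ← hf.1, mul_smul, invT_fix]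
    rw [chainV_val (by omega)]
    exact (vec_mem (by omega)).2.1
  · have hi' := List.mem_range.1 hi
    have e := co0_dotInt g (chainV i) (chainV (2 * n))
    rw [stabGrp_fix (by omega) hg i hi', chainV_val (by omega),
      chainV_val (show 2 * n < 8 by omega)] at e
    rw [beq_iff_eq, dotL_eq, dotL_eq]
    exact e

theorem card_step {n : ℕ} (hn : n < 4) {N : ℕ} (hN : (candL n).length ≤ N) :
    Nat.card (stabGrp n) ≤ N * Nat.card (stabGrp (n + 1)) := by
  classical
  haveI := finite_Co0
  let H := stabGrp n
  let S := MulAction.stabilizer H (chainV (2 * n))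
  have h1 : Nat.card S = Nat.card (stabGrp (n + 1)) :=
    Nat.card_congr
      { toFun := fun a => ⟨(a : H).1, (a : H).2, a.2⟩
        invFun := fun a => ⟨⟨a.1, a.2.1⟩, a.2.2⟩
        left_inv := fun a => rfl
        right_inv := fun a => rfl }
  rw [← h1, ← S.index_mul_card]
  refine Nat.mul_le_mul_right _ ?_
  rw [MulAction.index_stabilizer]
  refine le_trans ?_ ((List.toFinset_card_le _).trans hN)
  rw [← Nat.card_eq_finsetCard]
  refine Nat.card_le_card_of_injective
    (fun o : MulAction.orbit H (chainV (2 * n)) => (⟨o.1.1, ?_⟩ : {y // y ∈ (candL n).toFinset}))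
    fun a b e => Subtype.ext (Subtype.ext (congrArg (fun z => z.1) e :))
  obtain ⟨g, hg⟩ := o.2
  rw [List.mem_toFinset, ← hg]
  exact orbit_mem hn g.2

theorem stab_four_fix {g : Co0} (hg : g ∈ stabGrp 4) {x : leechLattice} (hx : InO x.1) :
    g • x = x := by
  let A : leechLattice →+ leechLattice := AddMonoidHom.mk' (fun v => g • v) (co0_add g)
  have hA : ∀ k < 8, A (chainV k) = chainV k := fun k hk => stabGrp_fix le_rfl hg k (by omega)
  have hcross : ∀ p ∈ oct0, A (crossL p) = crossL p := by
    intro p hp
    obtain ⟨r, hr, e⟩ : ∃ r < 8, inIdx.getD r 0 = ptIdx p := by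
      revert p; decide +kernel
    have hc := eq_of_eqB (List.all_eq_true.1 coef_ok r (List.mem_range.2 hr))
    have hsum : crossL p = ∑ k ∈ Finset.range 8, (chainCoef.getD r []).getD k 0 • chainV k := by
      refine Subtype.ext (funext fun q => ?_)
      have h2 := congrFun hc q
      simp only [e, ptIdx_injective.eq_iff] at h2
      rw [AddSubgroup.val_finsetSum, Finset.sum_apply]
      show Leech.cross p q = _
      rw [Leech.cross, ← h2, ← List.sum_toFinset _ List.nodup_range, List.toFinset_range]
      refine Finset.sum_congr rfl fun k hk => ?_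
      rw [AddSubgroup.coe_zsmul, Pi.smul_apply, smul_eq_mul, chainV_val (Finset.mem_range.1 hk)]
    rw [hsum, map_sum]
    exact Finset.sum_congr rfl fun k hk => by rw [map_zsmul, hA k (Finset.mem_range.1 hk)]
  have h8 : (8 : ℤ) • x = ∑ p ∈ oct0, x.1 p • crossL p := by
    refine Subtype.ext (funext fun q => ?_)
    rw [AddSubgroup.coe_zsmul, AddSubgroup.val_finsetSum, Finset.sum_apply, Pi.smul_apply,
      smul_eq_mul]
    simp only [AddSubgroup.coe_zsmul, Pi.smul_apply, smul_eq_mul, crossL, Leech.cross, mul_ite,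
      mul_zero, Finset.sum_ite_eq]
    split_ifs with h
    · ring
    · rw [hx q h, mul_zero]
  have e : A ((8 : ℤ) • x) = (8 : ℤ) • x := by
    rw [h8, map_sum]
    exact Finset.sum_congr rfl fun p hp => by rw [map_zsmul, hcross p hp]
  rw [map_zsmul] at e
  refine Subtype.ext (funext fun q => ?_)
  have := congrFun (congrArg Subtype.val e) q
  simp only [AddSubgroup.coe_zsmul, Pi.smul_apply, smul_eq_mul] at this
  have h9 : (g • x).1 q = x.1 q := by
    have : (8 : ℤ) * (g • x).1 q = 8 * x.1 q := this
    omega
  exact h9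

theorem leechU_inO : InO Spor.leechU.1 := Co2Invol.vecU_inO

theorem card_stab_four : Nat.card (stabGrp 4) ≤ 256 := by
  haveI : Finite Co0 := finite_Co0
  let K : Subgroup Co0 := rho.ker.map cent.subtype
  have hK : Nat.card K = 512 := by
    rw [Subgroup.card_map_of_injective (Subgroup.subtype_injective _), card_ker]; norm_num
  have hle : stabGrp 4 ≤ K := by
    intro g hg
    have hf := mem_frameGrp.1 (stabGrp_le 4 hg)
    refine ⟨⟨g, mem_cent.2 ⟨hf.1, stab_four_fix hg leechU_inO⟩⟩, ?_, rfl⟩
    rw [SetLike.mem_coe, MonoidHom.mem_ker, rho_eq_one_iff]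
    intro x
    congr 1
    exact Subtype.ext (stab_four_fix hg x.2.1)
  have hne : stabGrp 4 ≠ K := by
    intro e
    let c : SignSets := ⟨bitSet (Golay.enc 208), bitSet_enc_supports 208, code_mem 208 wit_ok.1⟩
    have hm : kerElem 1 c ∈ K := ⟨kerCent 1 c, kerCent_mem 1 c, rfl⟩
    rw [← e] at hm
    have hc := (mem_frameGrp.1 (stabGrp_le 4 hm)).2
    have hw : witVec = (crossL (ptOf 4)).1 := rfl
    have h2 := wit_ok.2
    rw [hw] at h2
    have h3 := congrArg (fun a : Co0 => (a • crossL (ptOf 4)).1) hc
    simp only [mul_smul, autW_smul, kerElem_smul, OneMemClass.coe_one, Equiv.Perm.coe_one,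
      Function.comp_id] at h3
    rw [show c.1 = bitSet (Golay.enc 208) from rfl] at h3
    rw [← h3, eqB_self] at h2
    exact Bool.noConfusion h2
  obtain ⟨m, hm⟩ := Subgroup.card_dvd_of_le hle
  rw [hK] at hm
  have hlt : Nat.card (stabGrp 4) ≠ 512 := fun h =>
    hne (Subgroup.eq_of_le_of_card_ge hle (by rw [hK, h]))
  rcases m with _ | _ | m
  · omega
  · omega
  · nlinarith

theorem card_frameGrp : Nat.card frameGrp ≤ 240 * (27 * (8 * (3 * 256))) := by
  obtain ⟨h0, h1, h2, h3⟩ := cand_len
  refine (card_step (n := 0) (by norm_num) h0).trans (Nat.mul_le_mul_left _ ?_)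
  refine (card_step (n := 1) (by norm_num) h1).trans (Nat.mul_le_mul_left _ ?_)
  refine (card_step (n := 2) (by norm_num) h2).trans (Nat.mul_le_mul_left _ ?_)
  exact (card_step (n := 3) (by norm_num) h3).trans (Nat.mul_le_mul_left _ card_stab_four)

/-- The vector with fours at two positions outside the base octad. -/
theorem outPairs :
    (((pairList.filter fun y => inIdx.all fun i => y (ptOf i) == 0).all fun y => inLeechB y) &&
      Nat.blt 240 (pairList.filter fun y => inIdx.all fun i => y (ptOf i) == 0).length &&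
      decide ((pairList.filter fun y => inIdx.all fun i => y (ptOf i) == 0).map encV).Nodup &&
      (pairList.filter fun y => inIdx.all fun i => y (ptOf i) == 0).all fun y =>
        dotL y y == 32) = true := by
  decide +kernel

theorem not_neg_conj (k : Co0) : k * invT * k⁻¹ ≠ invT * negCo0 := by
  intro hk
  haveI := finite_Co0
  classical
  set L := pairList.filter fun y => inIdx.all fun i => y (ptOf i) == 0 with hL
  have h := outPairs
  simp only [Bool.and_eq_true, decide_eq_true_eq, Nat.blt_eq] at h
  obtain ⟨⟨⟨hin, hlen⟩, hnd⟩, hn⟩ := h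
  have hnd' : L.Nodup := hnd.of_map _
  have hf : ∀ y ∈ L.toFinset, ∃ v : leechLattice, v.1 = y ∧ (k⁻¹ • v).1 ∈ octVecs := by
    intro y hy
    rw [List.mem_toFinset] at hy
    refine ⟨⟨y, mem_of_inLeechB (List.all_eq_true.1 hin y hy)⟩, rfl, octVec_of ?_ ?_⟩
    · rw [show sqNorm (k⁻¹ • (⟨y, _⟩ : leechLattice)).1 = sqNorm y from (k⁻¹).2.2 _]
      have := List.all_eq_true.1 hn y hy
      rw [beq_iff_eq, dotL_eq] at this
      simpa only [sqNorm, dotInt, pow_two] using this
    · refine inO_of_fix ?_
      set v : leechLattice := ⟨y, mem_of_inLeechB (List.all_eq_true.1 hin y hy)⟩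
      have hv : invT • v = -v := by
        refine Subtype.ext ((invT_smul v).trans (funext fun p => ?_))
        show flipOn signSet y p = -y p
        simp only [flipOn, mem_signSet]
        by_cases hp : p ∈ oct0
        · have h0 : y p = 0 := by
            have h5 := List.all_eq_true.1 (List.mem_filter.1 hy).2 (ptIdx p)
              (by revert hp; revert p; decide +kernel)
            rw [ptOf_ptIdx] at h5
            exact beq_iff_eq.1 h5
          simp [hp, h0]
        · simp [hp]
      have e : invT * k⁻¹ = k⁻¹ * (invT * negCo0) := by rw [← hk]; group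
      rw [← mul_smul, e, mul_smul, mul_smul, negCo0_smul, co0_neg, hv, neg_neg]
  have hle : L.toFinset.card ≤ octVecs.toFinset.card := by
    refine Finset.card_le_card_of_injOn
      (fun y => if h : y ∈ leechLattice then (k⁻¹ • (⟨y, h⟩ : leechLattice)).1 else y) ?_ ?_
    · intro y hy
      obtain ⟨v, rfl, hv⟩ := hf y hy
      rw [Finset.mem_coe, List.mem_toFinset]
      simp only [dif_pos v.2]
      exact hv
    · intro a ha b hb e
      obtain ⟨u, rfl, -⟩ := hf a ha
      obtain ⟨v, rfl, -⟩ := hf b hb
      simp only [dif_pos u.2, dif_pos v.2] at e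
      exact congrArg Subtype.val (smul_left_cancel k⁻¹ (Subtype.ext e))
  rw [List.toFinset_card_of_nodup hnd'] at hle
  have h240 : octVecs.length ≤ 240 := by
    have := cand_len.1
    rwa [show candL 0 = octVecs from List.filter_eq_self.2 fun y _ => rfl] at this
  exact absurd (hlen.trans_le (hle.trans ((List.toFinset_card_le _).trans h240))) (lt_irrefl _)

/-- The bound for the centraliser. -/
theorem card_centralizer_le (y : Cfsg.Spor.Suz) (hy : suzCode.enc y = zC) :
    Nat.card (Subgroup.centralizer ({y} : Set Cfsg.Spor.Suz)) ≤ 2 * 3317760 := by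
  haveI := finite_Co0
  have hcode : suzCode.enc y = normC (matEnc xLift) := by
    rw [hy, xLift, matEnc_mul, matEnc_mul, enc_autH, enc_autH_inv, enc_invT]
    exact (Nat.eq_of_beq_eq_true code_x).symm
  obtain ⟨xk, hxk, hproj⟩ := exists_proj_of_code hcode
  let K : Subgroup cover := (Subgroup.centralizer ({y} : Set Cfsg.Spor.Suz)).comap proj
  have hK : Nat.card K = 6 * Nat.card (Subgroup.centralizer ({y} : Set Cfsg.Spor.Suz)) := by
    let f := proj.subgroupComap (Subgroup.centralizer ({y} : Set Cfsg.Spor.Suz))
    have hf : Function.Surjective f :=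
      MonoidHom.subgroupComap_surjective_of_surjective proj _ SuzCover.proj_surjective
    suffices hker : Nat.card f.ker = Nat.card kerZ by
      rw [← f.ker.index_mul_card, Subgroup.index_ker, MonoidHom.range_eq_top.2 hf,
        Subgroup.card_top, hker, SuzCover.card_kerZ, mul_comm]
    refine Nat.card_congr
      { toFun := fun a => ⟨((a : K) : cover), ?_⟩
        invFun := fun a => ⟨⟨a.1, ?_⟩, ?_⟩
        left_inv := fun a => rfl
        right_inv := fun a => rfl }
    · rw [← SuzCover.proj_ker, MonoidHom.mem_ker]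
      exact congrArg Subtype.val a.2
    · rw [Subgroup.mem_comap, MonoidHom.mem_ker.1 (SuzCover.proj_ker.symm ▸ a.2)]
      exact one_mem _
    · exact Subtype.ext (MonoidHom.mem_ker.1
        (show a.1 ∈ proj.ker by rw [SuzCover.proj_ker]; exact a.2))
  have hmem : ∀ k ∈ K, autH⁻¹ * k.1 * autH ∈ frameGrp := by
    intro k hk
    refine mem_frameGrp.2 ⟨?_, ?_⟩
    · have hz : (k * xk * k⁻¹) * xk⁻¹ ∈ kerZ := by
        rw [← SuzCover.proj_ker, MonoidHom.mem_ker]
        simp only [map_mul, map_inv, hproj,
          Subgroup.mem_centralizer_singleton_iff.1 (Subgroup.mem_comap.1 hk)]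
        group
      obtain ⟨j, hj⟩ := SuzCover.code_of_mem_kerZ hz
      obtain ⟨c, hc⟩ : ∃ c, c = k.1 * xLift * k.1⁻¹ * xLift⁻¹ := ⟨_, rfl⟩
      have hcj : matEnc c = matEnc (Om ^ j) := by
        rw [← hj, hc]
        simp only [Subgroup.coe_mul, Subgroup.coe_inv, hxk]
      have hkx : k.1 * xLift * k.1⁻¹ = c * xLift := by rw [hc, inv_mul_cancel_right]
      have hsq : (c * xLift) * (c * xLift) = 1 := by
        rw [← hkx, show k.1 * xLift * k.1⁻¹ * (k.1 * xLift * k.1⁻¹) =
          k.1 * (xLift * xLift) * k.1⁻¹ by group, xLift_sq, mul_one, mul_inv_cancel]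
      have hcomm : Commute (Om ^ j) xLift :=
        Commute.pow_left (by rw [← hxk]; exact (SuzCover.Om_central _ xk.2).symm) j
      have hOm2 : (Om ^ j) * (Om ^ j) = 1 := by
        rcases eq_or_neg_of_matEnc hcj with e | e <;> rw [e] at hsq
        · rw [hcomm.symm.mul_mul_mul_comm, xLift_sq, mul_one] at hsq
          exact hsq
        · rw [show Om ^ j * negCo0 * xLift = Om ^ j * xLift * negCo0 by
            rw [mul_assoc, ← SuzCover.negCo0_comm, ← mul_assoc],
            (show Commute negCo0 (Om ^ j * xLift) from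
              (SuzCover.negCo0_comm _).symm).mul_mul_mul_comm,
            SuzCover.negCo0_sq, mul_one, hcomm.symm.mul_mul_mul_comm, xLift_sq, mul_one] at hsq
          exact hsq
      have hOm1 : Om ^ j = 1 := by
        have h3 : (Om ^ j) ^ 3 = 1 := by rw [← pow_mul, mul_comm, pow_mul, SuzCover.Om_cube, one_pow]
        rwa [pow_succ, pow_two, hOm2, one_mul] at h3
      rw [hOm1] at hcj
      rcases eq_or_neg_of_matEnc hcj with e | e
      · rw [e, one_mul, xLift] at hkx
        calc autH⁻¹ * k.1 * autH * invT
            = autH⁻¹ * (k.1 * (autH * invT * autH⁻¹) * k.1⁻¹) * autH * (autH⁻¹ * k.1 * autH) := by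
              group
          _ = invT * (autH⁻¹ * k.1 * autH) := by rw [hkx]; group
      · exfalso
        rw [e, one_mul, xLift] at hkx
        refine not_neg_conj (autH⁻¹ * k.1 * autH) ?_
        calc autH⁻¹ * k.1 * autH * invT * (autH⁻¹ * k.1 * autH)⁻¹
            = autH⁻¹ * (k.1 * (autH * invT * autH⁻¹) * k.1⁻¹) * autH := by group
          _ = autH⁻¹ * (negCo0 * (autH * invT * autH⁻¹)) * autH := by rw [hkx]
          _ = invT * negCo0 := by
            rw [← SuzCover.negCo0_comm (autH * invT * autH⁻¹), mul_assoc autH⁻¹,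
              mul_assoc (autH * invT * autH⁻¹) negCo0, ← SuzCover.negCo0_comm autH]
            group
    · rw [autW_eq]
      have := SuzCover.Om_central k.1 k.2
      calc autH⁻¹ * k.1 * autH * (autH⁻¹ * Om * autH) = autH⁻¹ * (k.1 * Om) * autH := by group
        _ = _ := by rw [this]; group
  have hle : Nat.card K ≤ Nat.card frameGrp := by
    refine Nat.card_le_card_of_injective (fun k : K => ⟨_, hmem k.1 k.2⟩) fun a b e => ?_
    have := congrArg Subtype.val e
    exact Subtype.ext (Subtype.ext (by simpa using this))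
  have := hle.trans card_frameGrp
  omega

end Cfsg.Agent.SuzCentInv
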