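import Cfsg.Agent.SuzCentInv.Action
import Cfsg.Agent.SuzCentInv.Upper
import Cfsg.Agent.SuzType.Setup
import Cfsg.Agent.Components.FStar
import Cfsg.Agent.S0283
import Cfsg.Agent.S0280
import Cfsg.Agent.S0303

/-!
The Suzuki group satisfies the large extraspecial hypothesis of minus type in dimension six.
-/

set_option autoImplicit false
set_option maxRecDepth 100000

namespace Cfsg.Agent.SuzCentInv

open Cfsg Cfsg.Agent.SuzCover Cfsg.Agent.LargeExtra Cfsg.Agent.SuzType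

theorem orderOf_zS : orderOf zS = 2 :=
  orderOf_eq_prime (by rw [pow_two]; exact small.2.2.1) small.2.1

theorem card_CZ : Nat.card CZ = 3317760 := by
  have h1 : Nat.card CZ ≤ 2 * 3317760 := card_centralizer_le zS small.1
  have h2 : 3317760 ∣ Nat.card CZ := dvd_NQ.trans (Subgroup.card_dvd_of_le inf_le_left)
  have h3 : Nat.card CZ ∣ 448345497600 := by
    rw [← CosetEnum.Suzuki.main.2]; exact Subgroup.card_subgroup_dvd_card _
  have h4 : 0 < Nat.card CZ := Nat.card_pos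
  obtain ⟨k, hk⟩ := h2
  rw [hk] at h1 h3 h4 ⊢
  rcases (show k = 1 ∨ k = 2 by omega) with rfl | rfl
  · rfl
  · norm_num at h3

theorem NQ_eq : NQ = CZ :=
  Subgroup.eq_of_le_of_card_ge inf_le_left (by
    rw [card_CZ]; exact Nat.le_of_dvd Nat.card_pos dvd_NQ)

theorem KQ_eq : KQ = Q7 := by
  refine (Subgroup.eq_of_le_of_card_ge Q7_KQ ?_).symm
  have h := (KQ.subgroupOf NQ).card_eq_card_quotient_mul_card_subgroup
  rw [Nat.card_congr (Subgroup.subgroupOfEquivOfLe (show KQ ≤ NQ from fun x hx => hx.1)).toEquiv]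
    at h
  have hN : Nat.card NQ = 3317760 := by rw [NQ_eq, card_CZ]
  obtain ⟨m, hm⟩ := dvd_bar
  rw [hm, hN] at h
  rw [card_Q7]
  have hm0 : 1 ≤ m := by
    rcases Nat.eq_zero_or_pos m with rfl | h0
    · simp at h
    · exact h0
  nlinarith [Nat.zero_le (Nat.card KQ)]

theorem CZ_normalizes : CZ ≤ Subgroup.normalizer (Q7 : Set Cfsg.Spor.Suz) :=
  NQ_eq ▸ inf_le_right

theorem centralizer_Q7 :
    Subgroup.centralizer (Q7 : Set Cfsg.Spor.Suz) ≤ Subgroup.zpowers zS := by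
  intro x hx
  have hxC : x ∈ CZ := mem_CZ.2 (hx zS zS_mem).symm
  have hxK : x ∈ KQ := mem_KQ.2 ⟨NQ_eq.symm ▸ hxC, fun q hq => Or.inl (hx q hq).symm⟩
  rw [KQ_eq] at hxK
  rcases central_Q7 hxK (fun w hw => hx w hw) with rfl | rfl
  · exact one_mem _
  · exact Subgroup.mem_zpowers _

/-- The extraspecial group inside the centraliser. -/
noncomputable abbrev QC : Subgroup CZ := Q7.subgroupOf CZ

instance QC_normal : QC.Normal where
  conj_mem n hn g := by
    rw [QC, Subgroup.mem_subgroupOf] at hn ⊢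
    simpa using (Subgroup.mem_normalizer_iff.1 (CZ_normalizes g.2) _).1 hn

theorem Q7_CZ : Q7 ≤ CZ := Q7_NQ.trans inf_le_left

theorem card_QC : Nat.card QC = 2 ^ 7 := by
  rw [QC, Nat.card_congr (Subgroup.subgroupOfEquivOfLe Q7_CZ).toEquiv, card_Q7]

theorem card_quot : Nat.card (CZ ⧸ QC) = 25920 := by
  have h := QC.card_eq_card_quotient_mul_card_subgroup
  rw [card_CZ, card_QC] at h
  omega

theorem exists_omega_iso : Nonempty (CZ ⧸ QC ≃* Omega (ZMod 2) q6) := by
  classical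
  have hE := ci_Q7.extra
  have hrange : ∀ {X : Type} [Group X] [Finite X] (θ : CZ →* X), θ.ker = QC →
      Nat.card θ.range = 25920 := fun θ hk => by
    rw [← Nat.card_congr (QuotientGroup.quotientKerEquivRange θ).toEquiv,
      Nat.card_congr (QuotientGroup.quotientMulEquivOfEq hk).toEquiv, card_quot]
  have hminus : ¬ ∃ A : Subgroup Q7, IsElementaryAbelian 2 A ∧ Nat.card A = 2 ^ (2 + 1 + 1) := by
    intro hA
    obtain ⟨ε⟩ := FormGroup.equiv_plus hE (n := 3) (by norm_num) card_Q7 hA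
    obtain ⟨θ, hk, -⟩ := exists_hom ci_Q7 centralizer_Q7 CZ_normalizes (FormGroup.nondeg_plus 3)
      (Cfsg.quadFormPlus 3 (ZMod 2)) (FormGroup.diag_plus 3) ε
    have h1 := hrange θ hk
    have h2 := Subgroup.card_subgroup_dvd_card θ.range
    rw [h1, S0287.result (ZMod.card 2) 3 (by norm_num)] at h2
    simp [Finset.prod_range_succ] at h2
  obtain ⟨ε⟩ := FormGroup.equiv_minus hE (m := 2) card_Q7 hminus
  obtain ⟨θ, hk, -⟩ := exists_hom ci_Q7 centralizer_Q7 CZ_normalizes (FormGroup.nondeg_minus 2) q6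
    (FormGroup.diag_minus 2) ε
  have hi : θ.range.index = 2 := by
    have := Subgroup.card_mul_index θ.range
    rw [hrange θ hk, card_iso6] at this
    omega
  have hle : Omega (ZMod 2) q6 ≤ θ.range := by
    show commutator _ ≤ _
    rw [commutator_def, Subgroup.commutator_le]
    intro a _ b _
    simp only [commutatorElement_def, Subgroup.mul_mem_iff_of_index_two hi, inv_mem_iff]
    tauto
  have hθ : θ.range = Omega (ZMod 2) q6 :=
    (Subgroup.eq_of_le_of_card_ge hle (by rw [hrange θ hk, card_omega6.1])).symm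
  exact ⟨(QuotientGroup.quotientMulEquivOfEq hk.symm).trans
    ((QuotientGroup.quotientKerEquivRange θ).trans (MulEquiv.subgroupCongr hθ))⟩

/-- A field with four elements. -/
abbrev F4 : Type := GaloisField 2 2

theorem card_F4 : Nat.card F4 = 2 ^ 2 := GaloisField.card 2 2 (by norm_num)

theorem isSimpleGroup_omega6 : IsSimpleGroup ↥(Omega (ZMod 2) q6) := by
  classical
  haveI : Fintype F4 := Fintype.ofFinite _
  have hK : Fintype.card F4 = 2 ^ 2 := by rw [← Nat.card_eq_fintype_card, card_F4]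
  obtain ⟨e⟩ := S0303.result (K := F4) (ZMod.card 2) hK (1 : ZMod 2) 1
    (by decide : ∀ z₁ z₂ : ZMod 2, z₁ ^ 2 + 1 * z₁ * z₂ + 1 * z₂ ^ 2 = 0 → z₁ = 0 ∧ z₂ = 0)
  haveI : IsSimpleGroup (PSU 4 F4 2) := S0283.result hK 4 (by norm_num) (by simp)
  haveI hs : IsSimpleGroup (POmega (ZMod 2) q6) := MulEquiv.isSimpleGroup e
  have hcard : Nat.card (POmega (ZMod 2) q6) = 25920 := by
    rw [Nat.card_congr e.toEquiv]
    have h := S0280.result hK 4 (by norm_num)
    norm_num [Finset.prod_range_succ, Nat.even_iff] at h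
    rw [← Nat.card_eq_fintype_card] at h
    omega
  have h := (Subgroup.center ↥(Omega (ZMod 2) q6)).card_eq_card_quotient_mul_card_subgroup
  rw [hcard, card_omega6.1] at h
  have hbot : Subgroup.center ↥(Omega (ZMod 2) q6) = ⊥ := Subgroup.card_eq_one.1 (by omega)
  exact MulEquiv.isSimpleGroup
    ((QuotientGroup.quotientMulEquivOfEq hbot).trans QuotientGroup.quotientBot).symm

theorem pCore_CZ : Cfsg.pCore 2 ↥CZ = QC := by
  haveI : Fact (Nat.Prime 2) := ⟨Nat.prime_two⟩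
  refine le_antisymm (Cores.pCore_le fun N hN hp => ?_)
    (Cores.le_pCore QC_normal (IsPGroup.of_card card_QC))
  obtain ⟨e⟩ := exists_omega_iso
  haveI := isSimpleGroup_omega6
  let φ : ↥CZ →* ↥(Omega (ZMod 2) q6) := e.toMonoidHom.comp (QuotientGroup.mk' QC)
  have hφ : Function.Surjective φ := e.surjective.comp (QuotientGroup.mk'_surjective QC)
  rcases (hN.map φ hφ).eq_bot_or_eq_top with h | h
  · intro c hc
    have h1 := (Subgroup.eq_bot_iff_forall _).1 h _ ⟨c, hc, rfl⟩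
    exact (QuotientGroup.eq_one_iff c).1 (e.injective (h1.trans (map_one e).symm))
  · exfalso
    have hp' := hp.map φ
    rw [h] at hp'
    obtain ⟨n, hn⟩ := IsPGroup.iff_card.1 hp'
    rw [Subgroup.card_top, card_omega6.1] at hn
    have h5 : 5 ∣ 2 ^ n := hn ▸ by norm_num
    exact absurd (Nat.prime_five.dvd_of_dvd_pow h5) (by norm_num)

theorem genFitting_CZ : Cfsg.generalizedFittingSubgroup ↥CZ = QC := by
  haveI : Fact (Nat.Prime 2) := ⟨Nat.prime_two⟩
  rw [Components.genFitting_eq_pCore_of_centralizer_le (p := 2) ?_, pCore_CZ]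
  rw [pCore_CZ]
  intro c hc
  rw [QC, Subgroup.mem_subgroupOf]
  have hm : (c : Cfsg.Spor.Suz) ∈ Subgroup.zpowers zS := centralizer_Q7 fun q hq =>
    congrArg Subtype.val (hc ⟨q, Q7_CZ hq⟩ hq)
  exact Subgroup.zpowers_le.2 zS_mem hm

theorem suz_hypothesis : IsSimpleGroup Cfsg.Spor.Suz ∧ ¬ IsMulCommutative Cfsg.Spor.Suz ∧
    ∃ z : Cfsg.Spor.Suz, orderOf z = 2 ∧
    ∃ (Q : Subgroup (Subgroup.centralizer ({z} : Set Cfsg.Spor.Suz))) (_ : Q.Normal),
      Cfsg.generalizedFittingSubgroup (Subgroup.centralizer ({z} : Set Cfsg.Spor.Suz)) = Q ∧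
      Cfsg.IsExtraspecial 2 Q ∧ Nat.card Q = 2 ^ 7 ∧
      Nonempty ((Subgroup.centralizer ({z} : Set Cfsg.Spor.Suz)) ⧸ Q ≃*
        Cfsg.Omega (ZMod 2) (Cfsg.quadFormMinus 2 (ZMod 2) 1 1)) ∧
      ∃ g : Cfsg.Spor.Suz, (∃ hq : g * z * g⁻¹ ∈ Subgroup.centralizer ({z} : Set Cfsg.Spor.Suz),
        (⟨g * z * g⁻¹, hq⟩ : Subgroup.centralizer ({z} : Set Cfsg.Spor.Suz)) ∈ Q) ∧
        g * z * g⁻¹ ≠ z := by
  have h := move_ok
  simp only [Bool.and_eq_true, Bool.not_eq_true'] at h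
  obtain ⟨⟨hm, hne⟩, hmem⟩ := h
  obtain ⟨c, hc, hcq⟩ := List.any_eq_true.1 hmem
  obtain ⟨q, hq, rfl⟩ := exists_of_layer 7 (by norm_num) c hc
  have himg : imgC = suzCode.enc q := Nat.eq_of_beq_eq_true hcq
  have hgz : moveS * zS * moveS⁻¹ = q := by
    rw [mul_inv_eq_iff_eq_mul]
    refine suzCode.enc_inj ?_
    rw [suzCode.enc_mul, suzCode.enc_mul, enc_move, small.1, ← himg]
    exact Nat.eq_of_beq_eq_true hm
  have hqz : q ≠ zS := fun e => by
    rw [himg, e, small.1, Nat.beq_refl] at hne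
    exact Bool.noConfusion hne
  refine ⟨CosetEnum.Suzuki.main.1, fun hcomm => hqz ?_, zS, orderOf_zS, QC, QC_normal,
    genFitting_CZ, isExtraspecial_map_equiv ci_Q7.extra (Subgroup.subgroupOfEquivOfLe Q7_CZ).symm,
    card_QC, exists_omega_iso, moveS, ⟨hgz ▸ Q7_CZ hq, ?_⟩, hgz ▸ hqz⟩
  · rw [← hgz, hcomm.is_comm.comm moveS zS, mul_inv_cancel_right]
  · rw [QC, Subgroup.mem_subgroupOf]
    exact hgz ▸ hq

end Cfsg.Agent.SuzCentInv
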