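import Cfsg.Agent.SuzCentInv.Elems
import Cfsg.Agent.LargeExtra.Image

/-!
The extraspecial group, the group normalising it inside the centraliser, and the kernel of the
action modulo the involution.
-/

set_option autoImplicit false
set_option maxRecDepth 100000

namespace Cfsg.Agent.SuzCentInv

open Cfsg Cfsg.Agent.SuzCover Cfsg.Agent.SchurCert Cfsg.Agent.Leech Cfsg.Agent.LargeExtra

/-- The centraliser of the involution. -/
noncomputable abbrev CZ : Subgroup Cfsg.Spor.Suz := Subgroup.centralizer ({zS} : Set Cfsg.Spor.Suz)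

theorem mem_CZ {x : Cfsg.Spor.Suz} : x ∈ CZ ↔ x * zS = zS * x :=
  Subgroup.mem_centralizer_singleton_iff

/-- The elements of the centraliser normalising the extraspecial group. -/
noncomputable def NQ : Subgroup Cfsg.Spor.Suz :=
  CZ ⊓ Subgroup.normalizer (Q7 : Set Cfsg.Spor.Suz)

theorem mem_NQ_of_code {x : Cfsg.Spor.Suz} (hx : suzCode.enc x ∈ actCodes) : x ∈ NQ := by
  have hz := small.1
  refine ⟨mem_CZ.2 (suzCode.enc_inj ?_), ?_⟩
  · rw [suzCode.enc_mul, suzCode.enc_mul, hz]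
    exact Nat.eq_of_beq_eq_true (List.all_eq_true.1 comm_ok _ hx)
  · have hn := List.all_eq_true.1 norm_ok _ hx
    have hle : Q7.map (MulAut.conj x).toMonoidHom ≤ Q7 := by
      rw [Q7, initGroup, MonoidHom.map_closure, Subgroup.closure_le]
      rintro _ ⟨_, ⟨i, hi, rfl⟩, rfl⟩
      obtain ⟨c, hc, e⟩ := List.any_eq_true.1 (List.all_eq_true.1 hn _ (gen_mem_qCodes hi))
      obtain ⟨y, hy, rfl⟩ := exists_of_layer 7 (by norm_num) c hc
      have e' : x * gen2 i = y * x := suzCode.enc_inj (by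
        rw [suzCode.enc_mul, suzCode.enc_mul]; exact Nat.eq_of_beq_eq_true e)
      show x * gen2 i * x⁻¹ ∈ initGroup gen2 7
      rw [e', mul_inv_cancel_right]
      exact hy
    have heq : Q7.map (MulAut.conj x).toMonoidHom = Q7 :=
      Subgroup.eq_of_le_of_card_ge hle
        (by rw [Subgroup.card_map_of_injective (MulAut.conj x).injective])
    refine Subgroup.mem_normalizer_iff.2 fun a => ⟨fun ha => ?_, fun ha => ?_⟩
    · rw [← heq]; exact ⟨a, ha, rfl⟩
    · rw [← heq] at ha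
      obtain ⟨b, hb, e⟩ := ha
      rwa [← (MulAut.conj x).injective e]

theorem gen2_NQ : initGroup gen2 13 ≤ NQ := by
  rw [initGroup, Subgroup.closure_le]
  rintro _ ⟨i, hi, rfl⟩
  refine mem_NQ_of_code ?_
  have hl : twoD.gens.length = 13 := rfl
  rw [enc_gen2, List.getD_eq_getElem _ _ (by rw [hl]; exact hi)]
  exact List.mem_append_left _ (List.mem_append_left _ (List.getElem_mem _))

theorem gen3_NQ : initGroup gen3 4 ≤ NQ := by
  rw [initGroup, Subgroup.closure_le]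
  rintro _ ⟨i, hi, rfl⟩
  refine mem_NQ_of_code ?_
  have hl : threeD.gens.length = 4 := rfl
  rw [enc_gen3, List.getD_eq_getElem _ _ (by rw [hl]; exact hi)]
  exact List.mem_append_left _ (List.mem_append_right _ (List.getElem_mem _))

theorem five_NQ : fiveS ∈ NQ :=
  mem_NQ_of_code (by rw [enc_five]; exact List.mem_append_right _ (List.mem_singleton_self _))

theorem Q7_NQ : Q7 ≤ NQ := (initGroup_mono gen2 (by norm_num)).trans gen2_NQ

theorem order_five : orderOf fiveS = 5 :=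
  haveI : Fact (Nat.Prime 5) := ⟨Nat.prime_five⟩
  orderOf_eq_prime small.2.2.2.2.1 small.2.2.2.2.2.1

theorem zS_comm {q : Cfsg.Spor.Suz} (hq : q ∈ Q7) : q * zS = zS * q :=
  mem_CZ.1 (Q7_NQ hq).1

theorem square_Q7 {q : Cfsg.Spor.Suz} (hq : q ∈ Q7) : q * q = 1 ∨ q * q = zS := by
  have h := List.all_eq_true.1 square_ok _ (mem_layer 7 (by norm_num) q hq)
  rw [Bool.or_eq_true] at h
  rcases h with h | h
  · exact Or.inl (suzCode.enc_inj (by
      rw [suzCode.enc_mul, suzCode.enc_one]; exact Nat.eq_of_beq_eq_true h))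
  · exact Or.inr (suzCode.enc_inj (by
      rw [suzCode.enc_mul, small.1]; exact Nat.eq_of_beq_eq_true h))

theorem central_Q7 {q : Cfsg.Spor.Suz} (hq : q ∈ Q7) (hc : ∀ w ∈ Q7, w * q = q * w) :
    q = 1 ∨ q = zS := by
  have h := List.all_eq_true.1 center_ok _ (mem_layer 7 (by norm_num) q hq)
  rw [Bool.or_eq_true, Bool.or_eq_true] at h
  rcases h with (h | h) | h
  · exact Or.inl (suzCode.enc_inj (by
      rw [suzCode.enc_one]; exact Nat.eq_of_beq_eq_true h))
  · exact Or.inr (suzCode.enc_inj (by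
      rw [small.1]; exact Nat.eq_of_beq_eq_true h))
  · exfalso
    obtain ⟨c, hc', hne⟩ := List.any_eq_true.1 h
    obtain ⟨i, hi, rfl⟩ := mem_qCodes hc'
    have e := congrArg suzCode.enc (hc _ (mem_initGroup gen2 hi))
    rw [suzCode.enc_mul, suzCode.enc_mul] at e
    change mulZ _ _ = mulZ _ _ at e
    rw [e, Nat.beq_refl] at hne
    exact Bool.noConfusion hne

theorem zpair {a : Cfsg.Spor.Suz} (h : a = 1 ∨ a = zS) {b : Cfsg.Spor.Suz}
    (k : b = 1 ∨ b = zS) : a * b = 1 ∨ a * b = zS := by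
  rcases h with rfl | rfl <;> rcases k with rfl | rfl <;> simp [small.2.2.1]

theorem comm_Q7 {u v : Cfsg.Spor.Suz} (hu : u ∈ Q7) (hv : v ∈ Q7) :
    u * v * u⁻¹ * v⁻¹ = 1 ∨ u * v * u⁻¹ * v⁻¹ = zS := by
  have hz1 : zS⁻¹ = zS := inv_eq_of_mul_eq_one_right small.2.2.1
  have e : u * v * u⁻¹ * v⁻¹ = (u * v) * (u * v) * (v⁻¹ * (u * u)⁻¹ * v) * (v * v)⁻¹ := by group
  have hinv : ∀ a : Cfsg.Spor.Suz, a = 1 ∨ a = zS → a⁻¹ = 1 ∨ a⁻¹ = zS := by
    rintro a (rfl | rfl)
    · exact Or.inl inv_one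
    · exact Or.inr hz1
  have hmid : v⁻¹ * (u * u)⁻¹ * v = (u * u)⁻¹ := by
    rcases hinv _ (square_Q7 hu) with h | h <;> rw [h]
    · group
    · rw [mul_assoc, ← zS_comm hv, inv_mul_cancel_left]
  rw [e, hmid]
  exact zpair (zpair (square_Q7 (mul_mem hu hv)) (hinv _ (square_Q7 hu))) (hinv _ (square_Q7 hv))

theorem isPGroup_Q7 : IsPGroup 2 ↥Q7 := IsPGroup.of_card card_Q7

theorem nonabelian_Q7 : ∃ u ∈ Q7, ∃ v ∈ Q7, u * v ≠ v * u := by
  by_contra hno
  push Not at hno
  have hle : (Q7 : Set Cfsg.Spor.Suz) ⊆ {1, zS} := fun q hq =>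
    central_Q7 hq fun w hw => hno w hw q hq
  have hcard := Set.ncard_le_ncard hle (Set.toFinite _)
  have h2 : ({1, zS} : Set Cfsg.Spor.Suz).ncard ≤ 2 := (Set.ncard_insert_le _ _).trans (by simp)
  have h3 : (Q7 : Set Cfsg.Spor.Suz).ncard = 2 ^ 7 := card_Q7
  omega

theorem ci_Q7 : CentralInvolution Q7 zS :=
  centralInvolution_of isPGroup_Q7 zS_mem small.2.2.1 small.2.1 (fun _ hx => zS_comm hx)
    (fun _ hx h => central_Q7 hx h) (fun _ hu _ hv => comm_Q7 hu hv) (fun _ hu => square_Q7 hu)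
    nonabelian_Q7

/-- The action on a pair modulo the involution is trivial. -/
def Triv (x q : Cfsg.Spor.Suz) : Prop := x * q = q * x ∨ x * q = zS * (q * x)

theorem not_triv_of_moves {x : Cfsg.Spor.Suz} (h : movesB (suzCode.enc x) = true) :
    ∃ q ∈ Q7, ¬ Triv x q := by
  obtain ⟨c, hc, hne⟩ := List.any_eq_true.1 h
  obtain ⟨i, hi, rfl⟩ := mem_qCodes hc
  refine ⟨gen2 i, mem_initGroup gen2 hi, ?_⟩
  simp only [Bool.and_eq_true, Bool.not_eq_true'] at hne
  rintro (e | e) <;> have e' := congrArg suzCode.enc e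
  · rw [suzCode.enc_mul, suzCode.enc_mul] at e'
    change mulZ _ _ = mulZ _ _ at e'
    rw [e', Nat.beq_refl] at hne
    exact Bool.noConfusion hne.1
  · rw [suzCode.enc_mul, suzCode.enc_mul, suzCode.enc_mul, small.1] at e'
    change mulZ _ _ = mulZ _ (mulZ _ _) at e'
    rw [e', Nat.beq_refl] at hne
    exact Bool.noConfusion hne.2

/-- The kernel of the action modulo the involution. -/
noncomputable def KQ : Subgroup Cfsg.Spor.Suz where
  carrier := {x | x ∈ NQ ∧ ∀ q ∈ Q7, Triv x q}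
  one_mem' := ⟨one_mem _, fun q _ => Or.inl (by rw [one_mul, mul_one])⟩
  mul_mem' {a b} ha hb := by
    refine ⟨mul_mem ha.1 hb.1, fun q hq => ?_⟩
    have hz : ∀ t, a * (zS * t) = zS * (a * t) := fun t => by
      rw [← mul_assoc, mem_CZ.1 ha.1.1, mul_assoc]
    rcases hb.2 q hq with e | e <;> rcases ha.2 q hq with k | k
    · exact Or.inl (by rw [mul_assoc, e, ← mul_assoc, k, mul_assoc])
    · exact Or.inr (by rw [mul_assoc, e, ← mul_assoc, k]; simp only [mul_assoc])
    · exact Or.inr (by rw [mul_assoc, e, hz, ← mul_assoc a, k, mul_assoc q])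
    · exact Or.inl (by
        rw [mul_assoc, e, hz, ← mul_assoc a, k, mul_assoc zS (q * a), ← mul_assoc zS zS,
          small.2.2.1, one_mul, mul_assoc q])
  inv_mem' {a} ha := by
    refine ⟨inv_mem ha.1, fun q hq => ?_⟩
    rcases ha.2 q hq with k | k
    · left
      calc a⁻¹ * q = a⁻¹ * (q * a) * a⁻¹ := by group
        _ = q * a⁻¹ := by rw [← k]; group
    · right
      have hz : a⁻¹ * zS = zS * a⁻¹ := mem_CZ.1 (inv_mem ha.1).1
      have k' : q = zS * (a⁻¹ * q * a) := by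
        rw [← mul_assoc, ← mul_assoc, ← hz, mul_assoc _ zS q, mul_assoc _ (zS * q) a, mul_assoc zS q a,
          ← k, inv_mul_cancel_left]
      calc a⁻¹ * q = zS * (zS * (a⁻¹ * q * a)) * a⁻¹ := by
            rw [← mul_assoc zS zS, small.2.2.1, one_mul, mul_inv_cancel_right]
        _ = zS * (q * a⁻¹) := by rw [← k', mul_assoc]

theorem mem_KQ {x : Cfsg.Spor.Suz} : x ∈ KQ ↔ x ∈ NQ ∧ ∀ q ∈ Q7, Triv x q := Iff.rfl

theorem Q7_KQ : Q7 ≤ KQ := fun x hx => by
  refine ⟨Q7_NQ hx, fun q hq => ?_⟩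
  rcases comm_Q7 hx hq with e | e
  · exact Or.inl (by
      calc x * q = x * q * x⁻¹ * q⁻¹ * (q * x) := by group
        _ = q * x := by rw [e, one_mul])
  · exact Or.inr (by
      calc x * q = x * q * x⁻¹ * q⁻¹ * (q * x) := by group
        _ = zS * (q * x) := by rw [e])

instance KQ_normal : (KQ.subgroupOf NQ).Normal where
  conj_mem k hk g := by
    rw [Subgroup.mem_subgroupOf] at hk ⊢
    refine ⟨(g * k * g⁻¹ : NQ).2, fun q hq => ?_⟩
    set r := (g : Cfsg.Spor.Suz)⁻¹ * q * g with hr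
    have hrQ : r ∈ Q7 := by
      have := (Subgroup.mem_normalizer_iff.1 (inv_mem g.2.2) q).1 hq
      rwa [inv_inv] at this
    have hz : (g : Cfsg.Spor.Suz) * zS = zS * g := mem_CZ.1 g.2.1
    have hq' : q = g * r * (g : Cfsg.Spor.Suz)⁻¹ := by rw [hr]; group
    simp only [Subgroup.coe_mul, Subgroup.coe_inv]
    rcases hk.2 r hrQ with e | e
    · left
      rw [hq']
      calc (g : Cfsg.Spor.Suz) * k * (g : Cfsg.Spor.Suz)⁻¹ * (g * r * (g : Cfsg.Spor.Suz)⁻¹)
          = g * (k * r) * (g : Cfsg.Spor.Suz)⁻¹ := by group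
        _ = _ := by rw [e]; group
    · right
      rw [hq']
      calc (g : Cfsg.Spor.Suz) * k * (g : Cfsg.Spor.Suz)⁻¹ * (g * r * (g : Cfsg.Spor.Suz)⁻¹)
          = g * (k * r) * (g : Cfsg.Spor.Suz)⁻¹ := by group
        _ = zS * g * (r * k) * (g : Cfsg.Spor.Suz)⁻¹ := by rw [e, ← hz]; group
        _ = _ := by group

/-- The natural map modulo the kernel. -/
noncomputable abbrev toBar : ↥NQ →* ↥NQ ⧸ KQ.subgroupOf NQ := QuotientGroup.mk' _

theorem card_map_bar (H : Subgroup Cfsg.Spor.Suz) (hH : H ≤ NQ) (hK : H ⊓ KQ ≤ Q7) :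
    Nat.card H ∣ Nat.card (↥NQ ⧸ KQ.subgroupOf NQ) * Nat.card (H ⊓ Q7 : Subgroup _) := by
  set H' := H.subgroupOf NQ with hH'
  have h1 : Nat.card H' = Nat.card H := Nat.card_congr (Subgroup.subgroupOfEquivOfLe hH).toEquiv
  let f : ↥H' →* ↥NQ ⧸ KQ.subgroupOf NQ := toBar.comp H'.subtype
  have h2 : Nat.card f.ker = Nat.card (H ⊓ Q7 : Subgroup _) := by
    refine Nat.card_congr
      { toFun := fun a => ⟨((a : ↥H') : ↥NQ), ?_, ?_⟩
        invFun := fun a => ⟨⟨⟨a, hH a.2.1⟩, a.2.1⟩, ?_⟩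
        left_inv := fun a => rfl
        right_inv := fun a => rfl }
    · exact (a : ↥H').2
    · have := a.2
      rw [MonoidHom.mem_ker, MonoidHom.comp_apply, QuotientGroup.mk'_apply,
        QuotientGroup.eq_one_iff] at this
      exact hK ⟨(a : ↥H').2, this⟩
    · rw [MonoidHom.mem_ker, MonoidHom.comp_apply, QuotientGroup.mk'_apply,
        QuotientGroup.eq_one_iff]
      exact Q7_KQ a.2.2
  rw [← h1, ← f.ker.index_mul_card, h2]
  refine mul_dvd_mul_right ?_ _
  rw [Subgroup.index_ker]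
  exact Subgroup.card_subgroup_dvd_card f.range

theorem two_inf : initGroup gen2 13 ⊓ KQ ≤ Q7 := by
  rintro x ⟨hx, hK⟩
  obtain ⟨a, ha, u, rfl, hu⟩ :=
    exists_split suzCode two_prime.pos two_wf two_spec.1 (fun i _ => enc_gen2 i) 7 6
      (by rw [twoD_n]) x hx
  have hu' : u ∈ KQ := by
    have := mul_mem (inv_mem (Q7_KQ ha)) hK
    rwa [inv_mul_cancel_left] at this
  have h := List.all_eq_true.1 move_two _ hu
  rw [Bool.or_eq_true] at h
  rcases h with h | h
  · have : u = 1 := suzCode.enc_inj (by rw [suzCode.enc_one]; exact Nat.eq_of_beq_eq_true h)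
    rw [this, mul_one]
    exact ha
  · obtain ⟨q, hq, hne⟩ := not_triv_of_moves h
    exact absurd (hu'.2 q hq) hne

theorem three_inf : initGroup gen3 4 ⊓ KQ ≤ Q7 := by
  rintro x ⟨hx, hK⟩
  obtain ⟨a, ha, u, rfl, hu⟩ :=
    exists_split suzCode three_prime.pos three_wf three_spec.1 (fun i _ => enc_gen3 i) 0 4
      (by rw [threeD_n]) x (by simpa using hx)
  rw [initGroup_zero, Subgroup.mem_bot] at ha
  subst ha
  rw [one_mul] at hK ⊢
  have h := List.all_eq_true.1 move_three _ hu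
  rw [Bool.or_eq_true] at h
  rcases h with h | h
  · have : u = 1 := suzCode.enc_inj (by rw [suzCode.enc_one]; exact Nat.eq_of_beq_eq_true h)
    rw [this]
    exact one_mem _
  · obtain ⟨q, hq, hne⟩ := not_triv_of_moves h
    exact absurd (hK.2 q hq) hne

theorem five_inf : Subgroup.zpowers fiveS ⊓ KQ ≤ Q7 := by
  rintro x ⟨hx, hK⟩
  haveI : Fact (Nat.Prime 5) := ⟨Nat.prime_five⟩
  by_contra hne
  have hx1 : x ≠ 1 := fun e => hne (e ▸ one_mem _)
  have hP : Nat.card (Subgroup.zpowers fiveS) = 5 := by rw [Nat.card_zpowers, order_five]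
  have hgen : fiveS ∈ Subgroup.zpowers x := by
    have h5 : orderOf x = 5 := by
      refine orderOf_eq_prime ?_ hx1
      obtain ⟨j, rfl⟩ := Subgroup.mem_zpowers_iff.1 hx
      rw [← zpow_natCast, ← zpow_mul, mul_comm, zpow_mul, zpow_natCast, small.2.2.2.2.1, one_zpow]
    have : Subgroup.zpowers x = Subgroup.zpowers fiveS :=
      Subgroup.eq_of_le_of_card_ge (Subgroup.zpowers_le.2 hx)
        (by rw [hP, Nat.card_zpowers, h5])
    rw [this]; exact Subgroup.mem_zpowers _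
  obtain ⟨q, hq, hq'⟩ := not_triv_of_moves (x := fiveS) (by rw [enc_five]; exact small.2.2.2.2.2.2)
  exact hq' ((Subgroup.zpowers_le.2 hK hgen).2 q hq)

theorem dvd_bar : 25920 ∣ Nat.card (↥NQ ⧸ KQ.subgroupOf NQ) := by
  set n := Nat.card (↥NQ ⧸ KQ.subgroupOf NQ)
  have hQ : ∀ (H : Subgroup Cfsg.Spor.Suz), Nat.Coprime (Nat.card H) 2 →
      Nat.card (H ⊓ Q7 : Subgroup _) = 1 := fun H hH => by
    refine Nat.eq_one_of_dvd_coprimes (a := Nat.card H) (b := 2 ^ 7) (hH.pow_right 7) ?_ ?_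
    · exact Subgroup.card_dvd_of_le inf_le_left
    · rw [← card_Q7]; exact Subgroup.card_dvd_of_le inf_le_right
  have h2 : 64 ∣ n := by
    have h := card_map_bar _ gen2_NQ two_inf
    have hle : Q7 ≤ initGroup gen2 13 := initGroup_mono gen2 (by norm_num)
    rw [two_spec.2, inf_eq_right.2 hle, card_Q7] at h
    exact Nat.dvd_of_mul_dvd_mul_right (show 0 < 2 ^ 7 by norm_num) (by simpa using h)
  have h3 : 81 ∣ n := by
    have h := card_map_bar _ gen3_NQ three_inf
    rwa [hQ _ (by rw [three_spec.2]; norm_num), mul_one, three_spec.2] at h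
  have h5 : 5 ∣ n := by
    have h := card_map_bar _ (Subgroup.zpowers_le.2 five_NQ) five_inf
    rwa [hQ _ (by rw [Nat.card_zpowers, order_five]; norm_num), mul_one, Nat.card_zpowers,
      order_five] at h
  omega

theorem dvd_NQ : 3317760 ∣ Nat.card NQ := by
  have h := Subgroup.card_dvd_of_le Q7_KQ
  rw [card_Q7] at h
  rw [(KQ.subgroupOf NQ).card_eq_card_quotient_mul_card_subgroup,
    Nat.card_congr (Subgroup.subgroupOfEquivOfLe (show KQ ≤ NQ from fun x hx => hx.1)).toEquiv]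
  exact (show 25920 * 2 ^ 7 = 3317760 by norm_num) ▸ mul_dvd_mul dvd_bar h

end Cfsg.Agent.SuzCentInv
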