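import Cfsg.Agent.SuzCover.Code
import Cfsg.Agent.SuzCentInv.Data
import Cfsg.Agent.Leech.GroupSep

/-!
The action of the listed elements on the extraspecial group.
-/

set_option autoImplicit false
set_option maxRecDepth 100000
set_option Elab.async false

namespace Cfsg.Agent.SuzCentInv

open Cfsg.Agent.SuzCover Cfsg.Agent.SchurCert Cfsg.Agent.Leech

/-- The codes of the generators of the extraspecial group. -/
def qCodes : List ℕ := twoD.gens.take 7

/-- The codes of the elements of the centraliser. -/
def actCodes : List ℕ := twoD.gens ++ threeD.gens ++ [fiveC]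

/-- An element acts non-trivially modulo the involution. -/
def movesB (x : ℕ) : Bool := qCodes.any fun q =>
  !(Nat.beq (mulZ x q) (mulZ q x)) && !(Nat.beq (mulZ x q) (mulZ zC (mulZ q x)))

theorem small_ok : (Nat.beq (twoD.gens.getD 0 oneZ) zC && !Nat.beq zC oneZ &&
    Nat.beq (mulZ zC zC) oneZ && Nat.beq qCodes.length 7 &&
    Nat.beq (Cert.powCode mulZ oneZ fiveC 5) oneZ && !Nat.beq fiveC oneZ && movesB fiveC) = true := by
  decide +kernel

theorem move_ok : (Nat.beq (mulZ moveC zC) (mulZ imgC moveC) && !Nat.beq imgC zC &&
    (twoD.layer mulZ oneZ 7).any (Nat.beq imgC)) = true := by decide +kernel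

theorem comm_ok : (actCodes.all fun c => Nat.beq (mulZ c zC) (mulZ zC c)) = true := by
  decide +kernel

theorem square_ok : ((twoD.layer mulZ oneZ 7).all fun x =>
    Nat.beq (mulZ x x) oneZ || Nat.beq (mulZ x x) zC) = true := by decide +kernel

theorem center_ok : ((twoD.layer mulZ oneZ 7).all fun x => Nat.beq x oneZ || Nat.beq x zC ||
    qCodes.any fun q => !Nat.beq (mulZ x q) (mulZ q x)) = true := by decide +kernel

theorem move_two : ((upperLayer twoD mulZ oneZ 7 6).all fun x => Nat.beq x oneZ || movesB x) = true := by
  decide +kernel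

theorem move_three : ((upperLayer threeD mulZ oneZ 0 4).all fun x => Nat.beq x oneZ || movesB x) = true := by
  decide +kernel

theorem norm_ok : (actCodes.all fun c => qCodes.all fun q =>
    (twoD.layer mulZ oneZ 7).any fun x => Nat.beq (mulZ c q) (mulZ x c)) = true := by decide +kernel

end Cfsg.Agent.SuzCentInv
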