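import Cfsg.Agent.SuzCover.Code
import Cfsg.Agent.SuzCentInv.Data
import Cfsg.Agent.Leech.GroupSep

/-!
The orders of the Sylow subgroups of the centraliser.
-/

set_option autoImplicit false
set_option maxRecDepth 100000
set_option Elab.async false

namespace Cfsg.Agent.SuzCentInv

open Cfsg.Agent.SuzCover Cfsg.Agent.SchurCert Cfsg.Agent.Leech

theorem two_wf : twoD.P.wf = true := by decide +kernel

theorem two_rel : relB twoD mulZ oneZ = true := by decide +kernel

theorem two_sep : sepAll twoD mulZ oneZ 7 = true := by decide +kernel

theorem three_wf : threeD.P.wf = true := by decide +kernel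

theorem three_rel : relB threeD mulZ oneZ = true := by decide +kernel

theorem three_sep : sepAll threeD mulZ oneZ 2 = true := by decide +kernel

end Cfsg.Agent.SuzCentInv
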