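import Cfsg.Agent.SuzCover.CertProg
import Cfsg.Agent.SuzCentInv.Data

/-!
The codes of the centraliser data belong to the group.
-/

set_option autoImplicit false
set_option maxRecDepth 100000
set_option Elab.async false

namespace Cfsg.Agent.SuzCentInv

open Cfsg.Agent.SuzCover Cfsg.Agent.SchurCert Cfsg.Agent.Leech

/-- The codes needed. -/
def centCodes : List ℕ := twoD.gens ++ threeD.gens ++ [fiveC, moveC]

theorem centSteps_ok : progZ genCodes.reverse centSteps = true := by decide +kernel

theorem centCodes_ok : (centCodes.all fun c =>
    (progCodes genCodes.reverse centSteps).any (Nat.beq c)) = true := by decide +kernel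

end Cfsg.Agent.SuzCentInv
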