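import Cfsg.Agent.SuzCover.Multiplier
import Cfsg.Agent.SuzCentInv.CheckProg
import Cfsg.Agent.SuzCentInv.CheckGrp
import Cfsg.Agent.SuzCentInv.CheckAct

/-!
The elements with the listed codes and the orders of the subgroups they generate.
-/

set_option autoImplicit false
set_option maxRecDepth 100000

namespace Cfsg.Agent.SuzCentInv

open Cfsg.Agent.SuzCover Cfsg.Agent.SchurCert Cfsg.Agent.Leech

theorem exists_cent {c : ℕ} (hc : c ∈ centCodes) : ∃ x, suzCode.enc x = c := by
  obtain ⟨y, hy, hcy⟩ := List.any_eq_true.1 (List.all_eq_true.1 centCodes_ok c hc)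
  rw [Nat.eq_of_beq_eq_true hcy]
  refine progZ_achieved _ _ centSteps_ok (fun d hd => ?_) y hy
  rw [List.mem_reverse, genCodes_eq, List.mem_map] at hd
  obtain ⟨x, -, rfl⟩ := hd
  exact ⟨_, enc_of x⟩

/-- An element with a given code. -/
noncomputable def cElem (c : ℕ) : Cfsg.Spor.Suz :=
  open Classical in if h : ∃ x, suzCode.enc x = c then h.choose else 1

theorem enc_cElem {c : ℕ} (hc : c ∈ centCodes) : suzCode.enc (cElem c) = c := by
  rw [cElem, dif_pos (exists_cent hc)]
  exact (exists_cent hc).choose_spec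

theorem enc_cElem_getD (L : List ℕ) (hL : ∀ c ∈ L, c ∈ centCodes) (i : ℕ) :
    suzCode.enc (cElem (L.getD i oneZ)) = L.getD i oneZ := by
  have h : ∃ x, suzCode.enc x = L.getD i oneZ := by
    rw [List.getD_eq_getElem?_getD]
    cases hi : L[i]? with
    | none => exact ⟨1, suzCode.enc_one⟩
    | some y => exact exists_cent (hL y (List.mem_of_getElem? hi))
  rw [cElem, dif_pos h]
  exact h.choose_spec

/-- The generators of the Sylow 2-subgroup. -/
noncomputable def gen2 (i : ℕ) : Cfsg.Spor.Suz := cElem (twoD.gens.getD i oneZ)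

/-- The generators of the Sylow 3-subgroup. -/
noncomputable def gen3 (i : ℕ) : Cfsg.Spor.Suz := cElem (threeD.gens.getD i oneZ)

theorem enc_gen2 (i : ℕ) : suzCode.enc (gen2 i) = twoD.gens.getD i oneZ :=
  enc_cElem_getD _ (fun c hc => List.mem_append_left _ (List.mem_append_left _ hc)) i

theorem enc_gen3 (i : ℕ) : suzCode.enc (gen3 i) = threeD.gens.getD i oneZ :=
  enc_cElem_getD _ (fun c hc => List.mem_append_left _ (List.mem_append_right _ hc)) i

/-- The involution. -/
noncomputable def zS : Cfsg.Spor.Suz := gen2 0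

/-- The element of order five. -/
noncomputable def fiveS : Cfsg.Spor.Suz := cElem fiveC

/-- The element moving the involution. -/
noncomputable def moveS : Cfsg.Spor.Suz := cElem moveC

theorem enc_five : suzCode.enc fiveS = fiveC :=
  enc_cElem (List.mem_append_right _ List.mem_cons_self)

theorem enc_move : suzCode.enc moveS = moveC :=
  enc_cElem (List.mem_append_right _ (List.mem_cons_of_mem _ List.mem_cons_self))

theorem twoD_n : twoD.P.n = 13 := rfl

theorem threeD_n : threeD.P.n = 4 := rfl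

theorem two_prime : twoD.P.p.Prime := Nat.prime_two

theorem three_prime : threeD.P.p.Prime := Nat.prime_three

theorem two_ok : twoD.groupOK mulZ oneZ = true :=
  groupOK_of_sep suzCode two_prime two_wf (fun i _ => enc_gen2 i) (k := 7)
    (by rw [twoD_n]; norm_num) two_rel two_sep

theorem three_ok : threeD.groupOK mulZ oneZ = true :=
  groupOK_of_sep suzCode three_prime three_wf (fun i _ => enc_gen3 i) (k := 2)
    (by rw [threeD_n]; norm_num) three_rel three_sep

theorem two_spec : SatPC twoD.P gen2 ∧ Nat.card (initGroup gen2 13) = 2 ^ 13 :=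
  card_initGroup_of_groupOK suzCode twoD two_prime gen2 (fun i _ => enc_gen2 i) two_wf two_ok

theorem three_spec : SatPC threeD.P gen3 ∧ Nat.card (initGroup gen3 4) = 3 ^ 4 :=
  card_initGroup_of_groupOK suzCode threeD three_prime gen3 (fun i _ => enc_gen3 i) three_wf
    three_ok

theorem mem_layer : ∀ k ≤ 13, ∀ x ∈ initGroup gen2 k,
    suzCode.enc x ∈ twoD.layer mulZ oneZ k := by
  intro k
  induction k with
  | zero =>
    intro _ x hx
    rw [initGroup_zero, Subgroup.mem_bot] at hx
    subst hx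
    rw [suzCode.enc_one]
    exact List.mem_singleton_self _
  | succ k ih =>
    intro hk x hx
    obtain ⟨h, hh, e, he, rfl⟩ :=
      exists_of_mem_succ two_wf two_spec.1 two_prime.pos (by rw [twoD_n]; omega) hx
    simp only [Cert.layer, List.mem_flatMap, List.mem_range, List.mem_map]
    exact ⟨e, he, suzCode.enc h, ih (Nat.le_of_succ_le hk) h hh, by
      rw [suzCode.enc_mul, enc_pow, enc_gen2]; rfl⟩

theorem exists_of_layer : ∀ k ≤ 13, ∀ c ∈ twoD.layer mulZ oneZ k,
    ∃ x ∈ initGroup gen2 k, suzCode.enc x = c := by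
  intro k
  induction k with
  | zero =>
    intro _ c hc
    simp only [Cert.layer, List.mem_singleton] at hc
    exact ⟨1, one_mem _, by rw [hc, suzCode.enc_one]; rfl⟩
  | succ k ih =>
    intro hk c hc
    simp only [Cert.layer, List.mem_flatMap, List.mem_range, List.mem_map] at hc
    obtain ⟨e, -, y, hy, rfl⟩ := hc
    obtain ⟨x, hx, rfl⟩ := ih (Nat.le_of_succ_le hk) y hy
    refine ⟨x * gen2 k ^ e, mul_mem (initGroup_mono gen2 (Nat.le_succ k) hx)
      (pow_mem (mem_initGroup gen2 (Nat.lt_succ_self k)) _), ?_⟩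
    rw [suzCode.enc_mul, enc_pow, enc_gen2]; rfl

/-- The extraspecial group. -/
noncomputable def Q7 : Subgroup Cfsg.Spor.Suz := initGroup gen2 7

theorem card_Q7 : Nat.card Q7 = 2 ^ 7 := by
  refine card_initGroup_eq two_wf two_spec.1 two_prime.pos two_prime (k := 7)
    (by rw [twoD_n]; norm_num) fun j hj hmem => ?_
  have h1 := mem_layer j (by omega) _ hmem
  rw [enc_gen2] at h1
  have h2 := two_ok
  simp only [Cert.groupOK, List.all_eq_true, List.mem_range, Bool.and_eq_true, Bool.not_eq_true',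
    List.any_eq_false] at h2
  exact (h2 j (by rw [twoD_n]; omega)).2 _ h1 (Nat.beq_refl _)

theorem zS_mem : zS ∈ Q7 := mem_initGroup gen2 (by norm_num)

theorem small :
    suzCode.enc zS = zC ∧ zS ≠ 1 ∧ zS * zS = 1 ∧ qCodes.length = 7 ∧ fiveS ^ 5 = 1 ∧ fiveS ≠ 1 ∧
      movesB fiveC = true := by
  have h := small_ok
  simp only [Bool.and_eq_true, Bool.not_eq_true'] at h
  obtain ⟨⟨⟨⟨⟨⟨h1, h2⟩, h3⟩, h4⟩, h5⟩, h6⟩, h7⟩ := h
  have hz : suzCode.enc zS = zC := (enc_gen2 0).trans (Nat.eq_of_beq_eq_true h1)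
  refine ⟨hz, fun e => ?_, suzCode.enc_inj ?_, Nat.eq_of_beq_eq_true h4, suzCode.enc_inj ?_,
    fun e => ?_, h7⟩
  · rw [e, suzCode.enc_one] at hz
    rw [show zC = oneZ from hz.symm, Nat.beq_refl] at h2
    exact Bool.noConfusion h2
  · rw [suzCode.enc_mul, suzCode.enc_one, hz]
    exact Nat.eq_of_beq_eq_true h3
  · rw [enc_pow, suzCode.enc_one, enc_five]
    exact Nat.eq_of_beq_eq_true h5
  · have h8 := enc_five
    rw [e, suzCode.enc_one] at h8
    rw [show fiveC = oneZ from h8.symm, Nat.beq_refl] at h6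
    exact Bool.noConfusion h6

theorem mem_qCodes {c : ℕ} (hc : c ∈ qCodes) : ∃ i < 7, suzCode.enc (gen2 i) = c := by
  rw [qCodes] at hc
  obtain ⟨i, hi, rfl⟩ := List.getElem_of_mem hc
  rw [List.length_take] at hi
  refine ⟨i, by omega, ?_⟩
  rw [enc_gen2, List.getElem_take, List.getD_eq_getElem _ _ (by omega)]

theorem gen_mem_qCodes {i : ℕ} (hi : i < 7) : suzCode.enc (gen2 i) ∈ qCodes := by
  have hl := small.2.2.2.1
  rw [qCodes, List.length_take] at hl
  rw [enc_gen2, qCodes, List.getD_eq_getElem _ _ (by omega)]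
  exact List.mem_take_iff_getElem.2 ⟨i, by omega, rfl⟩

end Cfsg.Agent.SuzCentInv
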